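import Mathlib

/-! Generated: six dualities of the plane over seven elements, as tables on its 57 points and 57 lines,
and words for elementary transvections in them. -/

set_option autoImplicit false

namespace CfsgLib.CosetEnum.ON.Plane

/-- the packed tables -/
def tauCode (x : ℕ) : ℕ := [0x3837363534333231302f2e2d2c2b2a292827262524232221201f1e1d1c1b1a191817161514131211100f0e0d0c0b0a0908070605040302010071706f6e6d6c6b6a696867666564636261605f5e5d5c5b5a595857565554535251504f4e4d4c4b4a494847464544434241403f3e3d3c3b3a39, 0x152406351a1f090f2333260c190412340e05212516002c2e312f2b2d141b2922010d3710021808283820110b1d1736072a320a031e271c1330494f436e6268405939585a565b5741534a3c675e7069525f486c3d453b546d654c445d71553a63474e6a615066463f6b4b426f60643e4d515c, 0x3437320038333616232f2907100a122e0b27190120301a15241f0906050822261317312103182a0d2c0f0e1104282b1e1b2d1d1c0c140225356d706b39716c6f4f5c68624049434b674460523a5969534e5d58423f3e415b5f4c506a5a3c5163466548474a3d61645754665655454d3b5e6e,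 0x3738363533340020071a260e2c142a1f0c052e1b100919213129021104252f22180b15162b01081d240f2d0d2817062312300a271c031e133270716f6e6c6d395940535f47654d6358453e67544942525a6a623b4a3d5e685b51444e4f643a41565d48664661503f5c4b694360553c574c6b, 0x10171e252c330911181f262d340a121920272e350b131a21282f360c141b222930370d151c232a31380e0f161d242b320807040306050200014950575e656c424a51585f666d434b525960676e444c535a61686f454d545b626970464e555c636a7147484f565d646b41403d3c3f3e3b393a, 0x3837363534333220231f221e211d181a1c17191b16302e2c312f2d2b282529262a27241011121314150f02030405060701090a0b0c0d0e080071706f6e6d6c6b595c585b575a565153555052544f6967656a686664615e625f63605d494a4b4c4d4e483b3c3d3e3f403a4243444546474139].getD x 0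

/-- the image of a point or line -/
def tauFun (x i : ℕ) : ℕ := (tauCode x >>> (8 * i)) % 256

/-- words for the elementary transvections -/
def transWords : List (List ℕ) := [[0, 1, 2, 1, 4, 3, 2, 1, 3, 5, 4, 3, 2, 1, 3, 2, 1, 3, 4, 3, 2, 1, 3, 2, 4, 3, 2, 1, 0, 3, 2, 4], [1, 0, 2, 1, 3, 2, 1, 0, 5, 4, 3, 2, 1, 3, 2, 3, 4, 3, 2, 1, 3, 2, 4, 5, 4, 3, 2, 1], [1, 0, 2, 1, 4, 3, 2, 1, 0, 5, 4, 3, 2, 1, 3, 2, 3, 4, 3, 2, 1, 3, 2, 4, 3, 5, 4, 3, 2, 1], [0, 1, 2, 1, 3, 2, 1, 3, 4, 3, 2, 1, 3, 2, 1, 4, 3, 2, 1, 0, 3, 2, 1, 4, 3, 2, 1, 0], [0, 1, 2, 1, 3, 2, 1, 3, 5, 4, 3, 2, 1, 3, 2, 1, 3, 4, 3, 2, 1, 3, 2, 4, 3, 2, 1, 0, 3, 2], [1, 0, 2, 1, 3, 2, 1, 0, 4, 3, 2, 1, 3, 2, 3, 4, 3, 2, 1, 3, 2, 5, 4, 3, 2, 1]]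

end CfsgLib.CosetEnum.ON.Plane
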