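import Cfsg.Agent.CosetEnum.ON.Six
import Cfsg.Agent.CosetEnum.ON.Plane.Data
import Cfsg.Agent.Classical.Linear.Card
import Cfsg.Agent.Classical.Linear.Generation

/-!
`PSL(3, 7)` on the 57 points and 57 lines of its plane, inside the group generated by six dualities
that satisfy the relations of `a, …, f`.
-/

set_option autoImplicit false
set_option maxRecDepth 20000

namespace CfsgLib.CosetEnum.ON.Plane

open Matrix

local notation "Z7" => ZMod 7
local notation "SL37" => Matrix.SpecialLinearGroup (Fin 3) (ZMod 7)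

/-- the representatives of the points -/
def pvec (i : ℕ) : Fin 3 → Z7 :=
  if i = 0 then ![0, 0, 1]
  else if i < 8 then ![0, 1, ((i - 1 : ℕ) : Z7)]
  else ![1, (((i - 8) / 7 : ℕ) : Z7), (((i - 8) % 7 : ℕ) : Z7)]

/-- the point of a vector -/
def pidx (v : Fin 3 → Z7) : ℕ :=
  if v 0 ≠ 0 then 8 + 7 * (v 1 * v 0 ^ 5).val + (v 2 * v 0 ^ 5).val
  else if v 1 ≠ 0 then 1 + (v 2 * v 1 ^ 5).val
  else 0

/-- the leading entry -/
def lead (v : Fin 3 → Z7) : Z7 := if v 0 ≠ 0 then v 0 else if v 1 ≠ 0 then v 1 else v 2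

theorem vec_eta (v : Fin 3 → Z7) : v = ![v 0, v 1, v 2] := by
  funext i; fin_cases i <;> rfl

theorem pidx_spec_aux : ∀ a b c : Z7, pidx ![a, b, c] < 57 ∧
    ((a = 0 ∧ b = 0 ∧ c = 0) ∨ (lead ![a, b, c] ≠ 0 ∧
      lead ![a, b, c] * pvec (pidx ![a, b, c]) 0 = a ∧
      lead ![a, b, c] * pvec (pidx ![a, b, c]) 1 = b ∧
      lead ![a, b, c] * pvec (pidx ![a, b, c]) 2 = c)) := by
  decide +kernel

theorem pidx_lt (v : Fin 3 → Z7) : pidx v < 57 := by
  rw [vec_eta v]; exact (pidx_spec_aux _ _ _).1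

theorem exists_scale {v : Fin 3 → Z7} (hv : v ≠ 0) : ∃ l : Z7, l ≠ 0 ∧ v = l • pvec (pidx v) := by
  rcases (pidx_spec_aux (v 0) (v 1) (v 2)).2 with ⟨h0, h1, h2⟩ | ⟨hl, h0, h1, h2⟩
  · exact absurd (by funext i; fin_cases i <;> assumption) hv
  · rw [← vec_eta v] at hl h0 h1 h2
    refine ⟨lead v, hl, ?_⟩
    funext i
    fin_cases i
    · exact h0.symm
    · exact h1.symm
    · exact h2.symm

theorem pidx_smul_aux : ∀ l a b c : Z7, l = 0 ∨
    pidx ![l * a, l * b, l * c] = pidx ![a, b, c] := by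
  decide +kernel

theorem pidx_smul {l : Z7} (hl : l ≠ 0) (v : Fin 3 → Z7) : pidx (l • v) = pidx v := by
  have h := (pidx_smul_aux l (v 0) (v 1) (v 2)).resolve_left hl
  rw [← vec_eta v] at h
  rw [vec_eta (l • v)]
  exact h

theorem pvec_spec : ∀ i : Fin 57, pidx (pvec i) = i ∧ pvec i ≠ 0 := by decide +kernel

/-- the action of a matrix on the indices of the points -/
def act (A : Matrix (Fin 3) (Fin 3) Z7) (i : Fin 57) : Fin 57 :=
  ⟨pidx (A *ᵥ pvec i), pidx_lt _⟩

theorem act_mul (A B : Matrix (Fin 3) (Fin 3) Z7) (i : Fin 57) (hB : B *ᵥ pvec i ≠ 0) :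
    act (A * B) i = act A (act B i) := by
  obtain ⟨l, hl, e⟩ := exists_scale hB
  refine Fin.ext ?_
  show pidx ((A * B) *ᵥ pvec i) = pidx (A *ᵥ pvec (pidx (B *ᵥ pvec i)))
  rw [← mulVec_mulVec]
  conv_lhs => rw [e, mulVec_smul, pidx_smul hl]

theorem sl_mulVec_ne (M : SL37) {v : Fin 3 → Z7} (hv : v ≠ 0) :
    (M : Matrix (Fin 3) (Fin 3) Z7) *ᵥ v ≠ 0 := fun h => hv (by
  have h2 := congrArg (fun w => ((M⁻¹ : SL37) : Matrix (Fin 3) (Fin 3) Z7) *ᵥ w) h
  simp only [mulVec_mulVec, mulVec_zero, ← Matrix.SpecialLinearGroup.coe_mul, inv_mul_cancel,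
    Matrix.SpecialLinearGroup.coe_one, one_mulVec] at h2
  exact h2)

/-- the contragredient matrix -/
def dual (M : SL37) : SL37 := Matrix.SpecialLinearGroup.transpose M⁻¹

theorem dual_mul (M N : SL37) : dual (M * N) = dual M * dual N := by
  refine Subtype.ext ?_
  simp [dual, Matrix.SpecialLinearGroup.coe_transpose, _root_.mul_inv_rev, Matrix.transpose_mul]

theorem dual_one : dual 1 = 1 := by
  refine Subtype.ext ?_
  simp [dual, Matrix.SpecialLinearGroup.coe_transpose]

theorem act_sl_mul (M N : SL37) (i : Fin 57) :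
    act ((M * N : SL37) : Matrix (Fin 3) (Fin 3) Z7) i =
      act (M : Matrix (Fin 3) (Fin 3) Z7) (act (N : Matrix (Fin 3) (Fin 3) Z7) i) := by
  rw [Matrix.SpecialLinearGroup.coe_mul]
  exact act_mul _ _ i (sl_mulVec_ne N (pvec_spec i).2)

theorem act_one (i : Fin 57) : act (1 : Matrix (Fin 3) (Fin 3) Z7) i = i :=
  Fin.ext (by show pidx _ = _; rw [one_mulVec]; exact (pvec_spec i).1)

/-- points and lines -/
def pl (M : SL37) (i : Fin 114) : Fin 114 :=
  if h : (i : ℕ) < 57 then
    ⟨act (M : Matrix (Fin 3) (Fin 3) Z7) ⟨i, h⟩, by omega⟩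
  else
    ⟨57 + act (dual M : Matrix (Fin 3) (Fin 3) Z7) ⟨i - 57, by omega⟩, by omega⟩

theorem pl_mul (M N : SL37) (i : Fin 114) : pl (M * N) i = pl M (pl N i) := by
  by_cases h : (i : ℕ) < 57
  · have hlt : ((act (N : Matrix (Fin 3) (Fin 3) Z7) ⟨i, h⟩ : Fin 57) : ℕ) < 57 := Fin.is_lt _
    simp only [pl, h, hlt, dite_true, act_sl_mul]
  · have hge : ¬ 57 + ((act (dual N : Matrix (Fin 3) (Fin 3) Z7) ⟨i - 57, by omega⟩ : Fin 57) : ℕ) < 57 := by
      omega
    simp only [pl, h, hge, dite_false, dual_mul, act_sl_mul]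
    refine Fin.ext ?_
    simp only [Nat.add_sub_cancel_left]

theorem pl_one (i : Fin 114) : pl 1 i = i := by
  by_cases h : (i : ℕ) < 57
  · simp only [pl, h, dite_true, Matrix.SpecialLinearGroup.coe_one, act_one]
  · simp only [pl, h, dite_false, dual_one, Matrix.SpecialLinearGroup.coe_one, act_one]
    exact Fin.ext (by simp; omega)

/-- the action of `SL(3, 7)` on points and lines -/
def hom : SL37 →* Equiv.Perm (Fin 114) where
  toFun M :=
    { toFun := pl M
      invFun := pl M⁻¹
      left_inv := fun i => by rw [← pl_mul, inv_mul_cancel, pl_one]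
      right_inv := fun i => by rw [← pl_mul, mul_inv_cancel, pl_one] }
  map_one' := Equiv.ext pl_one
  map_mul' M N := Equiv.ext (pl_mul M N)

theorem hom_point (M : SL37) (i : Fin 57) :
    hom M ⟨i, by omega⟩ = ⟨act (M : Matrix (Fin 3) (Fin 3) Z7) i, by omega⟩ := by
  show pl M _ = _
  simp only [pl, i.is_lt, dite_true, Fin.eta]

theorem scalar_of_act {M : SL37}
    (h : ∀ i : Fin 57, act (M : Matrix (Fin 3) (Fin 3) Z7) i = i) :
    ∃ r : Z7, Matrix.scalar (Fin 3) r = (M : Matrix (Fin 3) (Fin 3) Z7) := by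
  have key : ∀ i : Fin 57, ∃ l : Z7, (M : Matrix (Fin 3) (Fin 3) Z7) *ᵥ pvec i = l • pvec i := by
    intro i
    obtain ⟨l, -, e⟩ := exists_scale (sl_mulVec_ne M (pvec_spec i).2)
    refine ⟨l, ?_⟩
    have hi : pidx ((M : Matrix (Fin 3) (Fin 3) Z7) *ᵥ pvec i) = i := congrArg Fin.val (h i)
    rwa [hi] at e
  obtain ⟨l2, e2⟩ := key 0
  obtain ⟨l1, e1⟩ := key 1
  obtain ⟨l0, e0⟩ := key 8
  obtain ⟨l3, e3⟩ := key 16
  rw [show pvec ((0 : Fin 57) : ℕ) = ![0, 0, 1] by decide] at e2
  rw [show pvec ((1 : Fin 57) : ℕ) = ![0, 1, 0] by decide] at e1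
  rw [show pvec ((8 : Fin 57) : ℕ) = ![1, 0, 0] by decide] at e0
  rw [show pvec ((16 : Fin 57) : ℕ) = ![1, 1, 1] by decide] at e3
  refine ⟨l3, ?_⟩
  have a0 := congrFun e0 0; have a1 := congrFun e0 1; have a2 := congrFun e0 2
  have b0 := congrFun e1 0; have b1 := congrFun e1 1; have b2 := congrFun e1 2
  have c0 := congrFun e2 0; have c1 := congrFun e2 1; have c2 := congrFun e2 2
  have d0 := congrFun e3 0; have d1 := congrFun e3 1; have d2 := congrFun e3 2
  simp [Matrix.mulVec, dotProduct, Fin.sum_univ_three] at a0 a1 a2 b0 b1 b2 c0 c1 c2 d0 d1 d2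
  ext i j
  fin_cases i <;> fin_cases j <;> simp [a0, a1, a2, b0, b1, b2, c0, c1, c2] at d0 d1 d2 ⊢ <;>
    simp [d0, d1, d2]

theorem ker_hom : hom.ker = Subgroup.center SL37 := by
  ext M
  constructor
  · intro h
    obtain ⟨r, hr⟩ := scalar_of_act (M := M) fun i => by
      have := hom_point M i
      rw [MonoidHom.mem_ker.1 h] at this
      exact Fin.ext (Fin.mk.inj_iff.1 this).symm
    rw [Subgroup.mem_center_iff]
    intro B
    refine Subtype.ext ?_
    rw [Matrix.SpecialLinearGroup.coe_mul, Matrix.SpecialLinearGroup.coe_mul, ← hr]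
    exact ((Matrix.scalar_commute r (Commute.all r) _).eq).symm
  · intro h
    obtain ⟨r, hr1, hr⟩ := Matrix.SpecialLinearGroup.mem_center_iff.1 h
    have hsc : ∀ (N : SL37) (r : Z7), r ≠ 0 → Matrix.scalar (Fin 3) r = (N : Matrix (Fin 3) (Fin 3) Z7) →
        ∀ i, act (N : Matrix (Fin 3) (Fin 3) Z7) i = i := fun N r hr0 hN i => by
      refine Fin.ext ?_
      show pidx _ = _
      rw [← hN, show Matrix.scalar (Fin 3) r *ᵥ pvec i = r • pvec i by
        ext j; simp [Matrix.scalar_apply, mulVec_diagonal], pidx_smul hr0]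
      exact (pvec_spec i).1
    have hr0 : r ≠ 0 := by rintro rfl; simp at hr1; exact absurd hr1 (by decide)
    have hd : dual M ∈ Subgroup.center SL37 := by
      rw [Subgroup.mem_center_iff]
      intro B
      have hi := Subgroup.mem_center_iff.1 (inv_mem h) (Matrix.SpecialLinearGroup.transpose B)
      refine Subtype.ext ?_
      have := congrArg (fun X : SL37 => (X : Matrix (Fin 3) (Fin 3) Z7)ᵀ) hi
      simp only [Matrix.SpecialLinearGroup.coe_mul, Matrix.SpecialLinearGroup.coe_transpose,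
        Matrix.transpose_mul, Matrix.transpose_transpose] at this
      simp only [dual, Matrix.SpecialLinearGroup.coe_mul, Matrix.SpecialLinearGroup.coe_transpose]
      exact this.symm
    obtain ⟨s, hs1, hs⟩ := Matrix.SpecialLinearGroup.mem_center_iff.1 hd
    have hs0 : s ≠ 0 := by rintro rfl; simp at hs1; exact absurd hs1 (by decide)
    refine MonoidHom.mem_ker.2 (Equiv.ext fun i => ?_)
    show pl M i = i
    by_cases hi : (i : ℕ) < 57
    · simp only [pl, hi, dite_true, hsc M r hr0 hr]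
    · simp only [pl, hi, dite_false, hsc (dual M) s hs0 hs]
      exact Fin.ext (by simp; omega)

/-- the action of `PSL(3, 7)` -/
def pslHom : Matrix.ProjectiveSpecialLinearGroup (Fin 3) (ZMod 7) →* Equiv.Perm (Fin 114) :=
  QuotientGroup.lift _ hom ker_hom.ge

theorem pslHom_injective : Function.Injective pslHom := by
  rw [← MonoidHom.ker_eq_bot_iff, pslHom, QuotientGroup.ker_lift, ker_hom, QuotientGroup.map_mk'_self]

theorem card_psl37 : Nat.card (Matrix.ProjectiveSpecialLinearGroup (Fin 3) (ZMod 7)) = 1876896 := by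
  have : Fact (Nat.Prime 7) := ⟨by norm_num⟩
  have h := CfsgLib.Classical.Linear.card_psl (F := ZMod 7) 3 (by norm_num)
  simp only [ZMod.card, Fin.prod_univ_three] at h
  rw [show Nat.gcd 3 (7 - 1) = 3 by decide] at h
  norm_num at h
  rw [Nat.card_eq_fintype_card]
  omega

theorem tauFun_spec : allBelow (fun x => allBelow (fun i => (tauFun x i).blt 114 &&
    Nat.beq (tauFun x (tauFun x i)) i) 114) 6 = true := by
  decide +kernel

theorem tau_spec {x : ℕ} (hx : x < 6) (i : Fin 114) :
    tauFun x i < 114 ∧ tauFun x (tauFun x i) = i := by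
  have h := (Model.allBelow_iff _ _).1 ((Model.allBelow_iff _ _).1 tauFun_spec x hx) i i.2
  rw [Bool.and_eq_true] at h
  exact ⟨by simpa [Nat.blt, Nat.ble_eq] using h.1, Nat.eq_of_beq_eq_true h.2⟩

/-- the six dualities -/
def tau (x : ℕ) : Equiv.Perm (Fin 114) :=
  if hx : x < 6 then
    Function.Involutive.toPerm (fun i : Fin 114 => ⟨tauFun x i, (tau_spec hx i).1⟩)
      fun i => Fin.ext (tau_spec hx i).2
  else 1

theorem tau_inv (x : ℕ) : tau x = (tau x)⁻¹ := by
  rw [tau]
  split
  · ext i; rfl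
  · simp

/-- the image of a point under a word -/
def runTau (w : List ℕ) (i : ℕ) : ℕ := w.foldr (fun x q => tauFun x q) i

theorem gword_tau_apply (w : List ℕ) (hw : ∀ x ∈ w, x < 6) (i : Fin 114) :
    ((gword tau w i : Fin 114) : ℕ) = runTau w i := by
  induction w with
  | nil => simp [gword_nil, runTau]
  | cons x w ih =>
    rw [gword_cons, Equiv.Perm.mul_apply]
    show _ = tauFun x (runTau w i)
    rw [← ih fun y hy => hw y (List.mem_cons_of_mem _ hy), tau, dif_pos (hw x List.mem_cons_self)]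
    rfl

theorem tau_relators : ∀ w ∈ sixWords, gword tau w = 1 := by
  have h : (sixWords.all fun w => w.all (fun x => x.blt 6) &&
      allBelow (fun i => Nat.beq (runTau w i) i) 114) = true := by decide +kernel
  intro w hw
  have h' := List.all_eq_true.1 h w hw
  simp only [Bool.and_eq_true, List.all_eq_true] at h'
  refine Equiv.ext fun i => Fin.ext ?_
  rw [gword_tau_apply w (fun x hx => by simpa [Nat.blt, Nat.ble_eq] using h'.1 x hx)]
  exact Nat.eq_of_beq_eq_true ((Model.allBelow_iff _ _).1 h'.2 i i.2)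

/-- the positions of the transvections of `transWords` -/
def transPos : List (Fin 3 × Fin 3) := [(0, 1), (0, 2), (1, 0), (1, 2), (2, 0), (2, 1)]

/-- the elementary matrix with entry 1 -/
def elem1 (p : Fin 3 × Fin 3) : Matrix (Fin 3) (Fin 3) Z7 :=
  Matrix.of fun a b => if a = b ∨ (a, b) = p then 1 else 0

/-- its contragredient -/
def elem1d (p : Fin 3 × Fin 3) : Matrix (Fin 3) (Fin 3) Z7 :=
  Matrix.of fun a b => if a = b then 1 else if (b, a) = p then -1 else 0

theorem transWords_check : (List.range 6).all (fun k =>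
    (transWords.getD k []).all (fun x => x.blt 6) &&
      (List.finRange 57).all (fun i => runTau (transWords.getD k []) i ==
        (act (elem1 (transPos.getD k (0, 1))) i : ℕ)) &&
      (List.finRange 57).all (fun i => runTau (transWords.getD k []) (57 + i) ==
        57 + (act (elem1d (transPos.getD k (0, 1))) i : ℕ))) = true := by
  decide +kernel

theorem transvection_elem1 : ∀ i j : Fin 3, i ≠ j →
    Matrix.transvection i j (1 : Z7) = elem1 (i, j) := by
  decide +kernel

theorem elem1_adjugate : ∀ i j : Fin 3, i ≠ j →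
    (elem1 (i, j)).adjugateᵀ = elem1d (i, j) := by
  decide +kernel

theorem tau_zero_line : ¬ ((tau 0 ⟨0, by norm_num⟩ : Fin 114) : ℕ) < 57 := by decide +kernel

theorem trans_mem {S : Subgroup (Equiv.Perm (Fin 114))} (hS : ∀ x < 6, tau x ∈ S)
    {i j : Fin 3} (hij : i ≠ j) :
    hom (Matrix.SpecialLinearGroup.transvection hij 1) ∈ S := by
  obtain ⟨k, hk, hpos⟩ : ∃ k < 6, transPos.getD k (0, 1) = (i, j) := by
    revert hij; revert i j; decide
  have h := List.all_eq_true.1 transWords_check k (List.mem_range.2 hk)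
  simp only [Bool.and_eq_true, List.all_eq_true, beq_iff_eq, List.mem_finRange, forall_const,
    hpos] at h
  obtain ⟨⟨hl, hp⟩, hq⟩ := h
  have hl' : ∀ x ∈ transWords.getD k [], x < 6 := fun x hx => by
    simpa [Nat.blt, Nat.ble_eq] using hl x hx
  have hmat : ((Matrix.SpecialLinearGroup.transvection hij (1 : Z7) : SL37) :
      Matrix (Fin 3) (Fin 3) Z7) = elem1 (i, j) := by
    exact transvection_elem1 i j hij
  have hdual : ((dual (Matrix.SpecialLinearGroup.transvection hij (1 : Z7)) : SL37) :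
      Matrix (Fin 3) (Fin 3) Z7) = elem1d (i, j) := by
    rw [dual, Matrix.SpecialLinearGroup.coe_transpose, Matrix.SpecialLinearGroup.coe_inv, hmat]
    exact elem1_adjugate i j hij
  have e : gword tau (transWords.getD k []) =
      hom (Matrix.SpecialLinearGroup.transvection hij 1) := by
    refine Equiv.ext fun q => Fin.ext ?_
    rw [gword_tau_apply _ hl']
    show _ = ((pl _ q : Fin 114) : ℕ)
    by_cases hq57 : (q : ℕ) < 57
    · simp only [pl, hq57, dite_true, hmat]
      exact hp ⟨q, hq57⟩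
    · simp only [pl, hq57, dite_false, hdual]
      have := hq ⟨q - 57, by omega⟩
      rwa [show 57 + ((⟨(q : ℕ) - 57, by omega⟩ : Fin 57) : ℕ) = q by simp; omega] at this
  rw [← e]
  exact gword_mem S _ fun x hx => hS x (hl' x hx)

theorem range_le {S : Subgroup (Equiv.Perm (Fin 114))} (hS : ∀ x < 6, tau x ∈ S) :
    pslHom.range ≤ S := by
  have : Fact (Nat.Prime 7) := ⟨by norm_num⟩
  have htop : S.comap hom = ⊤ :=
    CfsgLib.Classical.Linear.eq_top_of_transvection_mem fun i j hij a => by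
      have hpow : Matrix.SpecialLinearGroup.transvection hij a =
          Matrix.SpecialLinearGroup.transvection hij (1 : Z7) ^ a.val := by
        have hn : ∀ n : ℕ, Matrix.SpecialLinearGroup.transvection hij (1 : Z7) ^ n =
            Matrix.SpecialLinearGroup.transvection hij ((n : Z7)) := by
          intro n
          induction n with
          | zero =>
            rw [pow_zero]
            exact Subtype.ext (by simp [Matrix.SpecialLinearGroup.transvection])
          | succ n ih =>
            refine Subtype.ext ?_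
            rw [pow_succ, ih, Matrix.SpecialLinearGroup.coe_mul]
            show Matrix.transvection i j _ * Matrix.transvection i j _ = Matrix.transvection i j _
            rw [Matrix.transvection_mul_transvection_same _ _ hij]
            congr 1
            push_cast
            rfl
        rw [hn, ZMod.natCast_zmod_val]
      rw [hpow]
      exact pow_mem (Subgroup.mem_comap.2 (trans_mem hS hij)) _
  rintro _ ⟨q, rfl⟩
  obtain ⟨M, rfl⟩ := QuotientGroup.mk_surjective q
  exact Subgroup.mem_comap.1 (htop ▸ Subgroup.mem_top M : M ∈ S.comap hom)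

theorem tau_zero_not_mem : tau 0 ∉ pslHom.range := by
  rintro ⟨q, hq⟩
  obtain ⟨M, rfl⟩ := QuotientGroup.mk_surjective q
  have h := congrArg (fun p : Equiv.Perm (Fin 114) => ((p ⟨0, by omega⟩ : Fin 114) : ℕ)) hq
  simp only [pslHom, QuotientGroup.lift_mk] at h
  have hp := hom_point M 0
  rw [show (⟨((0 : Fin 57) : ℕ), by omega⟩ : Fin 114) = ⟨0, by omega⟩ from rfl] at hp
  rw [hp] at h
  refine tau_zero_line ?_
  rw [← h]
  exact Fin.is_lt (act (M : Matrix (Fin 3) (Fin 3) Z7) 0)

end CfsgLib.CosetEnum.ON.Plane
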